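import Cfsg.Agent.Lib.Local.McBride

/-! Dihedral sections. -/

namespace CfsgLib.Local

open Subgroup Cfsg
open scoped Pointwise commutatorElement

variable {G : Type*} [Group G] [Finite G] {p : ℕ} [Fact p.Prime]

/-- From normalizing to inverting. -/
theorem inverted_of_normalizing (x : G) (P : Subgroup G) (hx : ∃ k : ℕ, orderOf x = 2 ^ k) (hP : IsPGroup p P)
    (hN : x ∈ normalizer (P : Set G)) (hC : x ∉ centralizer (P : Set G)) :
    ∃ x y : G, (∃ k : ℕ, orderOf x = 2 ^ k) ∧ (∃ k : ℕ, orderOf y = p ^ k) ∧ y ≠ 1 ∧ x * y * x⁻¹ = y⁻¹ := by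
  classical
  obtain ⟨k, hk⟩ := hx
  have hex : ∃ n, x ^ 2 ^ n ∈ centralizer (P : Set G) := ⟨k, by
    rw [← hk, pow_orderOf_eq_one]; exact Subgroup.one_mem _⟩
  set n := Nat.find hex with hn
  have hnC : x ^ 2 ^ n ∈ centralizer (P : Set G) := Nat.find_spec hex
  have hn0 : n ≠ 0 := by
    intro h0
    rw [h0, pow_zero, pow_one] at hnC
    exact hC hnC
  obtain ⟨m, hm⟩ := Nat.exists_eq_succ_of_ne_zero hn0
  have hmC : x ^ 2 ^ m ∉ centralizer (P : Set G) := Nat.find_min hex (by omega)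
  set z := x ^ 2 ^ m with hz
  have hz2 : z ^ 2 ∈ centralizer (P : Set G) := by
    rw [hz, ← pow_mul, ← pow_succ]
    rw [hm] at hnC
    exact hnC
  have hzN : z ∈ normalizer (P : Set G) := Subgroup.pow_mem _ hN _
  have hzord : ∃ j : ℕ, orderOf z = 2 ^ j := by
    have h1 : orderOf z ∣ 2 ^ k := by
      apply orderOf_dvd_of_pow_eq_one
      rw [hz, ← pow_mul, mul_comm, pow_mul, ← hk, pow_orderOf_eq_one, one_pow]
    obtain ⟨j, -, hj⟩ := (Nat.dvd_prime_pow Nat.prime_two).mp h1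
    exact ⟨j, hj⟩
  have hex2 : ∃ s ∈ P, z * s ≠ s * z := by
    by_contra hno
    push Not at hno
    apply hmC
    rw [Subgroup.mem_centralizer_iff]
    intro s hs
    exact (hno s hs).symm
  obtain ⟨s, hs, hsz⟩ := hex2
  have hzs : z * s * z⁻¹ ∈ P := (Subgroup.mem_normalizer_iff.mp hzN s).mp hs
  set y := s * (z * s * z⁻¹)⁻¹ with hy
  have hyP : y ∈ P := P.mul_mem hs (P.inv_mem hzs)
  refine ⟨z, y, hzord, ?_, ?_, ?_⟩
  · obtain ⟨j, hj⟩ := (IsPGroup.iff_orderOf.mp hP) ⟨y, hyP⟩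
    exact ⟨j, by rw [← hj, Subgroup.orderOf_mk]⟩
  · intro h1
    apply hsz
    have h2 : s = z * s * z⁻¹ := by
      rw [hy] at h1
      exact mul_inv_eq_one.mp h1
    nth_rewrite 2 [h2]
    group
  · have h3 : z ^ 2 * s * (z ^ 2)⁻¹ = s := by
      have := (Subgroup.mem_centralizer_iff.mp hz2) s hs
      rw [← this]; group
    have e : z * y * z⁻¹ = (z * s * z⁻¹) * (z ^ 2 * s * (z ^ 2)⁻¹)⁻¹ := by
      rw [hy, pow_two]; group
    rw [e, h3, hy]; group

/-- From inverting to a dihedral section. -/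
theorem involves_of_inverted (hp : p ≠ 2) (x y : G) (hx : ∃ k : ℕ, orderOf x = 2 ^ k) (hy : ∃ k : ℕ, orderOf y = p ^ k)
    (hy1 : y ≠ 1) (hinv : x * y * x⁻¹ = y⁻¹) : Involves (DihedralGroup p) G := by
  classical
  obtain ⟨k, hk⟩ := hx
  obtain ⟨j, hj⟩ := hy
  have hj0 : j ≠ 0 := by
    rintro rfl
    rw [pow_zero, orderOf_eq_one_iff] at hj
    exact hy1 hj
  obtain ⟨i, hi⟩ := Nat.exists_eq_succ_of_ne_zero hj0
  set y₁ := y ^ p ^ i with hy₁
  have hppos : 0 < p := (Fact.out : p.Prime).pos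
  have hy₁o : orderOf y₁ = p := by
    rw [hy₁, orderOf_pow' y (pow_ne_zero _ hppos.ne'), hj, hi, Nat.gcd_eq_right (pow_dvd_pow p (Nat.le_succ i)),
      pow_succ]
    exact Nat.mul_div_cancel_left _ (Nat.pow_pos hppos)
  have hinv₁ : x * y₁ * x⁻¹ = y₁⁻¹ := by
    rw [hy₁, ← conj_pow, hinv, inv_pow]
  set K := closure ({x, y₁} : Set G) with hK
  have hxK : x ∈ K := Subgroup.subset_closure (by simp)
  have hy₁K : y₁ ∈ K := Subgroup.subset_closure (by simp)
  set R := zpowers (x ^ 2) with hR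
  have hcx : Commute x (x ^ 2) := (Commute.refl x).pow_right 2
  have hcy : Commute y₁ (x ^ 2) := by
    show y₁ * x ^ 2 = x ^ 2 * y₁
    have h1 : x * y₁⁻¹ * x⁻¹ = y₁ := by
      have := congrArg (fun t => t⁻¹) hinv₁
      simpa [mul_assoc] using this
    have h2 : x ^ 2 * y₁ * (x ^ 2)⁻¹ = y₁ := by
      have e : x ^ 2 * y₁ * (x ^ 2)⁻¹ = x * (x * y₁ * x⁻¹) * x⁻¹ := by rw [pow_two]; group
      rw [e, hinv₁, h1]
    calc y₁ * x ^ 2 = (x ^ 2 * y₁ * (x ^ 2)⁻¹) * x ^ 2 := by rw [h2]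
      _ = x ^ 2 * y₁ := by group
  have hKC : K ≤ centralizer (R : Set G) := by
    rw [hK, Subgroup.closure_le]
    intro g hg
    have hc : Commute g (x ^ 2) := by
      rcases hg with rfl | rfl
      · exact hcx
      · exact hcy
    rw [SetLike.mem_coe, Subgroup.mem_centralizer_iff]
    rintro _ ⟨m, rfl⟩
    exact (hc.zpow_right m).symm
  have hnormal : (R.subgroupOf K).Normal := by
    refine ⟨fun n hn g => ?_⟩
    rw [Subgroup.mem_subgroupOf] at hn ⊢
    have h1 := (Subgroup.mem_centralizer_iff.mp (hKC g.2)) _ hn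
    have e : ((g * n * g⁻¹ : K) : G) = (n : G) := by
      simp only [MulMemClass.coe_mul, InvMemClass.coe_inv]
      rw [← h1]; group
    rw [e]
    exact hn
  refine ⟨K, R, hnormal, ?_⟩
  haveI := hnormal
  set Q := K ⧸ R.subgroupOf K
  let π : K →* Q := QuotientGroup.mk' (R.subgroupOf K)
  have hπsurj : Function.Surjective π := QuotientGroup.mk'_surjective _
  set σ : Q := π ⟨x, hxK⟩ with hσ
  set ρ : Q := π ⟨y₁, hy₁K⟩ with hρ
  have hσ2 : σ * σ = 1 := by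
    rw [hσ, ← map_mul]
    refine (QuotientGroup.eq_one_iff _).mpr (Subgroup.mem_subgroupOf.mpr ?_)
    show x * x ∈ R
    rw [← pow_two]
    exact Subgroup.mem_zpowers _
  have hρ1 : ρ ≠ 1 := by
    intro h1
    have h2 : (⟨y₁, hy₁K⟩ : K) ∈ R.subgroupOf K := (QuotientGroup.eq_one_iff _).mp h1
    have h3 : y₁ ∈ R := Subgroup.mem_subgroupOf.mp h2
    obtain ⟨m, hm⟩ := h3
    have h4 : y₁ ^ 2 ^ k = 1 := by
      rw [← hm]
      show ((x ^ 2) ^ m) ^ 2 ^ k = 1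
      rw [← zpow_natCast, ← zpow_mul, mul_comm, zpow_mul, zpow_natCast, ← pow_mul, mul_comm, pow_mul, ← hk,
        pow_orderOf_eq_one, one_pow, one_zpow]
    have h5 := orderOf_dvd_of_pow_eq_one h4
    rw [hy₁o] at h5
    have h6 := (Nat.prime_dvd_prime_iff_eq Fact.out Nat.prime_two).mp ((Fact.out : p.Prime).dvd_of_dvd_pow h5)
    exact hp h6
  have hρo : orderOf ρ = p := by
    apply orderOf_eq_prime
    · rw [hρ, ← map_pow]
      have : (⟨y₁, hy₁K⟩ : K) ^ p = 1 := by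
        apply Subtype.ext
        show y₁ ^ p = 1
        rw [← hy₁o]; exact pow_orderOf_eq_one y₁
      rw [this, map_one]
    · exact hρ1
  have hσinv : σ⁻¹ = σ := inv_eq_of_mul_eq_one_left hσ2
  have hinvQ : σ * ρ * σ = ρ⁻¹ := by
    have h1 : (⟨x, hxK⟩ : K) * ⟨y₁, hy₁K⟩ * (⟨x, hxK⟩ : K)⁻¹ = (⟨y₁, hy₁K⟩ : K)⁻¹ := Subtype.ext hinv₁
    have h2 := congrArg π h1
    simp only [map_mul, map_inv] at h2
    rw [← hσ, ← hρ, hσinv] at h2
    exact h2
  have hnot : σ ∉ zpowers ρ := by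
    rintro ⟨m, hm⟩
    have hcomm : σ * ρ = ρ * σ := by
      rw [← hm]
      show ρ ^ m * ρ = ρ * ρ ^ m
      exact ((Commute.refl ρ).zpow_left m)
    have h3 : ρ * σ * σ = ρ⁻¹ := by rw [← hcomm]; exact hinvQ
    rw [mul_assoc, hσ2, mul_one] at h3
    have h4 : ρ ^ 2 = 1 := by
      rw [pow_two]
      nth_rewrite 1 [h3]
      exact inv_mul_cancel ρ
    have h5 := orderOf_dvd_of_pow_eq_one h4
    rw [hρo] at h5
    exact hp ((Nat.prime_dvd_prime_iff_eq Fact.out Nat.prime_two).mp h5)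
  have hgen : closure ({σ, ρ} : Set Q) = ⊤ := by
    have h1 : closure ({⟨x, hxK⟩, ⟨y₁, hy₁K⟩} : Set K) = ⊤ := by
      rw [eq_top_iff]
      rintro ⟨g, hg⟩ -
      have h2 : ∀ g (hg : g ∈ K), (⟨g, hg⟩ : K) ∈ closure ({⟨x, hxK⟩, ⟨y₁, hy₁K⟩} : Set K) := by
        intro g hg
        induction hg using Subgroup.closure_induction with
        | mem g hg =>
          refine Subgroup.subset_closure ?_
          rcases hg with rfl | rfl
          · exact Or.inl rfl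
          · exact Or.inr rfl
        | one => exact Subgroup.one_mem _
        | mul a b ha hb iha ihb => exact Subgroup.mul_mem _ iha ihb
        | inv a ha iha => exact Subgroup.inv_mem _ iha
      exact h2 g hg
    have h2 := congrArg (Subgroup.map π) h1
    rw [MonoidHom.map_closure, Subgroup.map_top_of_surjective _ hπsurj, Set.image_pair] at h2
    exact h2
  obtain ⟨e⟩ := CfsgLib.Lead.nonempty_mulEquiv_dihedral_of_generators σ ρ p hρo hσ2 hinvQ hnot hgen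
  exact ⟨e.symm⟩

/-- From a dihedral section to a non-centralizing `2`-element. -/
theorem normalizing_of_involves (hp : p ≠ 2) (h : Involves (DihedralGroup p) G) :
    ∃ (x : G) (P : Subgroup G), (∃ k : ℕ, orderOf x = 2 ^ k) ∧ IsPGroup p ↥P ∧ x ∈ normalizer (P : Set G) ∧
      x ∉ centralizer (P : Set G) := by
  classical
  obtain ⟨K, R, hn, ⟨e⟩⟩ := h
  haveI := hn
  let π : K →* DihedralGroup p := e.toMonoidHom.comp (QuotientGroup.mk' (R.subgroupOf K))
  have hπ : Function.Surjective π := e.surjective.comp (QuotientGroup.mk'_surjective _)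
  haveI : NeZero p := ⟨(Fact.out : p.Prime).ne_zero⟩
  let C : Subgroup (DihedralGroup p) := zpowers (DihedralGroup.r 1)
  have hCr : ∀ c ∈ C, ∃ i : ZMod p, c = DihedralGroup.r i := by
    rintro _ ⟨m, rfl⟩
    refine ⟨(m : ZMod p), ?_⟩
    show (DihedralGroup.r (1 : ZMod p)) ^ m = _
    induction m using Int.induction_on with
    | zero => simp
    | succ m ih =>
      rw [zpow_add_one, ih, DihedralGroup.r_mul_r]
      push_cast; rfl
    | pred m ih =>
      rw [zpow_sub_one, ih, DihedralGroup.inv_r, DihedralGroup.r_mul_r]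
      push_cast
      congr 1
      ring
  have hrC : ∀ i : ZMod p, DihedralGroup.r i ∈ C := by
    intro i
    refine ⟨(i.val : ℤ), ?_⟩
    show (DihedralGroup.r (1 : ZMod p)) ^ ((i.val : ℕ) : ℤ) = _
    rw [zpow_natCast, DihedralGroup.r_one_pow, ZMod.natCast_zmod_val]
  have hCn : C.Normal := by
    refine ⟨fun c hc g => ?_⟩
    obtain ⟨i, rfl⟩ := hCr c hc
    cases g with
    | r j =>
      have : DihedralGroup.r j * DihedralGroup.r i * (DihedralGroup.r j)⁻¹ = DihedralGroup.r i := by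
        simp [DihedralGroup.r_mul_r, DihedralGroup.inv_r]
      rw [this]; exact hrC i
    | sr j =>
      have : DihedralGroup.sr j * DihedralGroup.r i * (DihedralGroup.sr j)⁻¹ = DihedralGroup.r (-i) := by
        simp [DihedralGroup.sr_mul_r, DihedralGroup.sr_mul_sr, DihedralGroup.inv_sr]
      rw [this]; exact hrC _
  set M := C.comap π with hM
  haveI hMn : M.Normal := hCn.comap π
  obtain ⟨S⟩ : Nonempty (Sylow p ↥M) := inferInstance
  have hfr := Sylow.normalizer_sup_eq_top S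
  set St := (S : Subgroup ↥M).map M.subtype with hSt
  obtain ⟨h₀, hh₀⟩ := hπ (DihedralGroup.sr 0)
  have hh₀mem : h₀ ∈ (↑(normalizer (St : Set K) ⊔ M) : Set K) := by
    rw [hfr]; exact Subgroup.mem_top _
  rw [Subgroup.mul_normal] at hh₀mem
  obtain ⟨n, hn', m, hm, hnm⟩ := hh₀mem
  have hπn : ∃ i : ZMod p, π n = DihedralGroup.sr i := by
    obtain ⟨t, ht⟩ := hCr _ (hm : π m ∈ C)
    have h1 : π n = DihedralGroup.sr 0 * (π m)⁻¹ := by
      rw [← hh₀, ← hnm, map_mul]; group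
    rw [ht, DihedralGroup.inv_r, DihedralGroup.sr_mul_r] at h1
    exact ⟨_, h1⟩
  obtain ⟨i, hi⟩ := hπn
  obtain ⟨u, v, huv, hc, ⟨e₂, he₂⟩, hv, hu', hv'⟩ := CfsgLib.Tr.exists_pow_decomp 2 n
  have hπv : π v = 1 := by
    obtain ⟨b, hb⟩ := hv'
    have h1 : (π v) ^ 2 = 1 := by
      rw [← hb]
      simp only [map_zpow, hi]
      rw [← zpow_natCast, ← zpow_mul, mul_comm, zpow_mul]
      have : (DihedralGroup.sr i : DihedralGroup p) ^ ((2 : ℕ) : ℤ) = 1 := by
        rw [zpow_natCast, pow_two, DihedralGroup.sr_mul_sr]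
        show DihedralGroup.r _ = DihedralGroup.r 0
        congr 1
        ring
      rw [this, one_zpow]
    have h2 : (π v) ^ orderOf v = 1 := by rw [← map_pow, pow_orderOf_eq_one, map_one]
    have h3 := orderOf_dvd_of_pow_eq_one h1
    have h4 := orderOf_dvd_of_pow_eq_one h2
    exact orderOf_eq_one_iff.mp (Nat.eq_one_of_dvd_coprimes hv.symm h3 h4)
  have hπu : π u = DihedralGroup.sr i := by
    rw [← hi, ← huv, map_mul, hπv, mul_one]
  have huN : u ∈ normalizer (St : Set K) := (Subgroup.zpowers_le.mpr hn') hu'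
  -- an element of `St` over `r 1`
  obtain ⟨t, ht⟩ := hπ (DihedralGroup.r 1)
  have htM : t ∈ M := by
    show π t ∈ C
    rw [ht]; exact hrC 1
  obtain ⟨t₁, t₂, ht₁₂, -, ⟨e₃, he₃⟩, ht₂, ht₁', ht₂'⟩ := CfsgLib.Tr.exists_pow_decomp p t
  have hπt₂ : π t₂ = 1 := by
    obtain ⟨b, hb⟩ := ht₂'
    have h1 : (π t₂) ^ p = 1 := by
      rw [← hb]
      simp only [map_zpow, ht]
      rw [← zpow_natCast, ← zpow_mul, mul_comm, zpow_mul]
      have : (DihedralGroup.r 1 : DihedralGroup p) ^ ((p : ℕ) : ℤ) = 1 := by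
        rw [zpow_natCast, DihedralGroup.r_one_pow]
        show DihedralGroup.r _ = DihedralGroup.r 0
        congr 1
        exact ZMod.natCast_self p
      rw [this, one_zpow]
    have h2 : (π t₂) ^ orderOf t₂ = 1 := by rw [← map_pow, pow_orderOf_eq_one, map_one]
    have h3 := orderOf_dvd_of_pow_eq_one h1
    have h4 := orderOf_dvd_of_pow_eq_one h2
    exact orderOf_eq_one_iff.mp (Nat.eq_one_of_dvd_coprimes ht₂ h4 h3)
  have hπt₁ : π t₁ = DihedralGroup.r 1 := by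
    rw [← ht, ← ht₁₂, map_mul, hπt₂, mul_one]
  have ht₁M : t₁ ∈ M := (Subgroup.zpowers_le.mpr htM) ht₁'
  have hzt : IsPGroup p (zpowers (⟨t₁, ht₁M⟩ : M)) := by
    refine isPGroup_zpowers ?_
    have h1 : (⟨t₁, ht₁M⟩ : M) ^ p ^ e₃ = 1 := Subtype.ext he₃
    obtain ⟨j, -, hj⟩ := (Nat.dvd_prime_pow Fact.out).mp (orderOf_dvd_of_pow_eq_one h1)
    exact ⟨j, hj⟩
  obtain ⟨c, hc'⟩ := CfsgLib.Fusion.exists_conj_le_sylow S hzt
  have hs₀ : c * ⟨t₁, ht₁M⟩ * c⁻¹ ∈ (S : Subgroup ↥M) := hc' ⟨_, Subgroup.mem_zpowers _, rfl⟩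
  set s₀ : K := ((c * ⟨t₁, ht₁M⟩ * c⁻¹ : M) : K) with hs₀def
  have hs₀St : s₀ ∈ St := ⟨_, hs₀, rfl⟩
  have hπs₀ : π s₀ = DihedralGroup.r 1 := by
    obtain ⟨a, ha⟩ := hCr _ (c.2 : π (c : K) ∈ C)
    have h1 : π s₀ = π (c : K) * π t₁ * (π (c : K))⁻¹ := by
      simp [hs₀def]
    rw [h1, ha, hπt₁, DihedralGroup.inv_r, DihedralGroup.r_mul_r, DihedralGroup.r_mul_r]
    congr 1
    ring
  have hStp : IsPGroup p St := S.2.map _
  refine ⟨(u : G), St.map K.subtype, ?_, hStp.map _, ?_, ?_⟩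
  · have h1 : orderOf u ∣ 2 ^ e₂ := orderOf_dvd_of_pow_eq_one he₂
    obtain ⟨a, -, ha⟩ := (Nat.dvd_prime_pow Nat.prime_two).mp h1
    exact ⟨a, by rw [Subgroup.orderOf_coe]; exact ha⟩
  · rw [mem_normalizer_iff_cj]
    refine cj_eq_of_le ?_ le_rfl
    rintro _ ⟨_, ⟨k, hk, rfl⟩, rfl⟩
    have := (Subgroup.mem_normalizer_iff.mp huN k).mp hk
    exact ⟨u * k * u⁻¹, this, rfl⟩
  · intro hC
    have h1 := (Subgroup.mem_centralizer_iff.mp hC) (s₀ : G) ⟨s₀, hs₀St, rfl⟩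
    have h2 : s₀ * u = u * s₀ := Subtype.ext h1
    have h3 := congrArg π h2
    rw [map_mul, map_mul, hπs₀, hπu, DihedralGroup.r_mul_sr, DihedralGroup.sr_mul_r] at h3
    have h4 : i - 1 = i + 1 := DihedralGroup.sr.inj h3
    have h5 : (2 : ZMod p) = 0 := by
      have : (2 : ZMod p) = (i + 1) - (i - 1) := by ring
      rw [this, h4]; ring
    have h6 : ((2 : ℕ) : ZMod p) = 0 := by exact_mod_cast h5
    rw [ZMod.natCast_eq_zero_iff] at h6
    exact hp ((Nat.prime_dvd_prime_iff_eq Fact.out Nat.prime_two).mp h6)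

/-- `S2758`. -/
theorem dihedral_section_iff (hp : p ≠ 2) :
    (Involves (DihedralGroup p) G ↔ ∃ (x : G) (P : Subgroup G), (∃ k : ℕ, orderOf x = 2 ^ k) ∧ IsPGroup p ↥P ∧
      x ∈ normalizer (P : Set G) ∧ x ∉ centralizer (P : Set G)) ∧
    (Involves (DihedralGroup p) G ↔ ∃ x y : G, (∃ k : ℕ, orderOf x = 2 ^ k) ∧ (∃ k : ℕ, orderOf y = p ^ k) ∧ y ≠ 1 ∧
      x * y * x⁻¹ = y⁻¹) := by
  have hBC : (∃ (x : G) (P : Subgroup G), (∃ k : ℕ, orderOf x = 2 ^ k) ∧ IsPGroup p ↥P ∧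
      x ∈ normalizer (P : Set G) ∧ x ∉ centralizer (P : Set G)) →
      ∃ x y : G, (∃ k : ℕ, orderOf x = 2 ^ k) ∧ (∃ k : ℕ, orderOf y = p ^ k) ∧ y ≠ 1 ∧ x * y * x⁻¹ = y⁻¹ := by
    rintro ⟨x, P, h1, h2, h3, h4⟩
    exact inverted_of_normalizing x P h1 h2 h3 h4
  have hCA : (∃ x y : G, (∃ k : ℕ, orderOf x = 2 ^ k) ∧ (∃ k : ℕ, orderOf y = p ^ k) ∧ y ≠ 1 ∧ x * y * x⁻¹ = y⁻¹) →
      Involves (DihedralGroup p) G := by
    rintro ⟨x, y, h1, h2, h3, h4⟩
    exact involves_of_inverted hp x y h1 h2 h3 h4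
  exact ⟨⟨normalizing_of_involves hp, fun h => hCA (hBC h)⟩, ⟨fun h => hBC (normalizing_of_involves hp h), hCA⟩⟩

end CfsgLib.Local
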